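-- Generic count of totally singular subspaces of a quadratic form with nondegenerate polar
-- form over a finite field, in terms of the number of zeros of the form (helper53).
-- No Witt theorem; all characteristics.
import Mathlib
import Cfsg.Agent.Lib.Helper40.Elusive

set_option autoImplicit false
set_option linter.unusedSectionVars false

namespace Cfsg.Agent.Lib.Helper53.OTS.Gen

open Module Matrix

universe u

/-- The polar form. -/
noncomputable abbrev bf {F : Type u} [Field F] {ι : Type} (Q : QuadraticForm F (ι → F)) :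
    LinearMap.BilinForm F (ι → F) :=
  QuadraticMap.polarBilin Q

section basics

variable {F : Type u} [Field F] {ι : Type} (Q : QuadraticForm F (ι → F))

theorem bf_apply (u v : ι → F) : bf Q u v = QuadraticMap.polar Q u v := rfl

theorem bf_comm (u v : ι → F) : bf Q u v = bf Q v u := by
  rw [bf_apply, bf_apply, QuadraticMap.polar_comm]

theorem bf_self (v : ι → F) : bf Q v v = 2 * Q v := by
  rw [bf_apply, QuadraticMap.polar_self]
  simp

theorem q_add_smul (v u : ι → F) (c : F) :
    Q (v + c • u) = Q v + c * bf Q u v + c ^ 2 * Q u := by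
  have h1 : QuadraticMap.polar Q v (c • u) = Q (v + c • u) - Q v - Q (c • u) := rfl
  rw [QuadraticMap.polar_smul_right, QuadraticMap.map_smul, QuadraticMap.polar_comm] at h1
  rw [bf_apply]
  simp only [smul_eq_mul] at h1
  linear_combination -h1

theorem q_add (u v : ι → F) : Q (u + v) = Q u + Q v + bf Q u v := by
  rw [bf_apply]
  show Q (u + v) = Q u + Q v + (Q (u + v) - Q u - Q v)
  ring

theorem bf_add_smul (w v u : ι → F) (c : F) :
    bf Q w (v + c • u) = bf Q w v + c * bf Q w u := by
  rw [map_add, map_smul, smul_eq_mul]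

/-- the polar form vanishes on a totally singular set closed under addition. -/
theorem bf_zero_of_q (u v : ι → F) (hu : Q u = 0) (hv : Q v = 0) (huv : Q (u + v) = 0) :
    bf Q u v = 0 := by
  have h := q_add Q u v
  rw [hu, hv, huv] at h
  linear_combination -h

theorem span_perp {k : ℕ} (x : Fin k → ι → F) (hx : ∀ i j, bf Q (x i) (x j) = 0) :
    ∀ v ∈ Submodule.span F (Set.range x), ∀ w ∈ Submodule.span F (Set.range x),
      bf Q w v = 0 := by
  have hUperp : ∀ v ∈ Submodule.span F (Set.range x), ∀ i, bf Q (x i) v = 0 := by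
    intro v hv i
    induction hv using Submodule.span_induction with
    | mem a ha =>
      obtain ⟨j, rfl⟩ := ha
      exact hx i j
    | zero => simp
    | add a a' _ _ h1 h2 => rw [map_add, h1, h2, add_zero]
    | smul c a _ h1 => rw [map_smul, h1, smul_zero]
  intro v hv w hw
  induction hw using Submodule.span_induction with
  | mem a ha =>
    obtain ⟨j, rfl⟩ := ha
    exact hUperp v hv j
  | zero => simp
  | add a a' _ _ h1 h2 => rw [map_add, LinearMap.add_apply, h1, h2, add_zero]
  | smul c a _ h1 => rw [map_smul, LinearMap.smul_apply, h1, smul_zero]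

theorem span_sing {k : ℕ} (x : Fin k → ι → F) (hq : ∀ i, Q (x i) = 0)
    (hx : ∀ i j, bf Q (x i) (x j) = 0) :
    ∀ v ∈ Submodule.span F (Set.range x), Q v = 0 := by
  intro v hv
  induction hv using Submodule.span_induction with
  | mem a ha =>
    obtain ⟨j, rfl⟩ := ha
    exact hq j
  | zero => exact QuadraticMap.map_zero Q
  | add a a' ha ha' h1 h2 =>
    rw [q_add, h1, h2, span_perp Q x hx a' ha' a ha]
    ring
  | smul c a _ h1 => rw [QuadraticMap.map_smul, h1, smul_zero]

end basics

section count

open scoped Classical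

variable {F : Type u} [Field F] [Fintype F] {ι : Type} [Fintype ι] [DecidableEq ι]
  (Q : QuadraticForm F (ι → F))

/-- the number of vectors orthogonal to an independent `k`-tuple. -/
theorem card_perp_tuple (hnd : (bf Q).Nondegenerate) {k : ℕ} (x : Fin k → ι → F)
    (hx : LinearIndependent F x) :
    (Finset.univ.filter (fun v : ι → F => ∀ i, bf Q (x i) v = 0)).card =
      Fintype.card F ^ (Fintype.card ι - k) := by
  set U := Submodule.span F (Set.range x) with hU
  have hperp : ∀ v : ι → F, (∀ i, bf Q (x i) v = 0) ↔ v ∈ (bf Q).orthogonal U := by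
    intro v
    rw [LinearMap.BilinForm.mem_orthogonal_iff]
    constructor
    · intro h u hu
      induction hu using Submodule.span_induction with
      | mem a ha =>
        obtain ⟨i, rfl⟩ := ha
        exact h i
      | zero => simp
      | add a a' _ _ h1 h2 => rw [map_add, LinearMap.add_apply, h1, h2, add_zero]
      | smul c a _ h1 => rw [map_smul, LinearMap.smul_apply, h1, smul_zero]
    · intro h i
      exact h _ (Submodule.subset_span ⟨i, rfl⟩)
  have hfU : finrank F U = k := by
    rw [hU, finrank_span_eq_card hx, Fintype.card_fin]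
  have hfO : finrank F ((bf Q).orthogonal U) = Fintype.card ι - k := by
    rw [LinearMap.BilinForm.finrank_orthogonal hnd, hfU, Module.finrank_fintype_fun_eq_card]
  have hcO : Fintype.card ((bf Q).orthogonal U) = (Fintype.card F) ^ (Fintype.card ι - k) := by
    rw [Module.card_eq_pow_finrank (K := F), hfO]
  rw [← hcO]
  exact (Fintype.card_of_subtype _ (fun v => by
    simp only [Finset.mem_filter, Finset.mem_univ, true_and]
    exact hperp v)).symm

/-- the key bijection `(v, c) ↦ v + c u`. -/
theorem card_step {k : ℕ} (x : Fin k → ι → F) (u : ι → F)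
    (hQu : Q u = 0) (hxu : ∀ i, bf Q (x i) u = 0) :
    (Finset.univ.filter (fun v : ι → F =>
        (Q v = 0 ∧ ∀ i, bf Q (x i) v = 0) ∧ ¬ bf Q u v = 0)).card * Fintype.card F =
    (Finset.univ.filter (fun v : ι → F =>
        (∀ i, bf Q (x i) v = 0) ∧ ¬ bf Q u v = 0)).card := by
  have hBuu : bf Q u u = 0 := by rw [bf_self, hQu, mul_zero]
  rw [← Finset.card_univ (α := F), ← Finset.card_product]
  apply Finset.card_nbij' (fun p => p.1 + p.2 • u)
    (fun w => (w - (Q w / bf Q u w) • u, Q w / bf Q u w))
  · rintro ⟨v, c⟩ hp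
    simp only [Finset.coe_product, Finset.coe_filter, Finset.mem_univ, true_and,
      Finset.coe_univ, Set.mem_prod, Set.mem_ofPred_eq, Set.mem_univ, and_true] at hp ⊢
    obtain ⟨⟨hQv, hxv⟩, huv⟩ := hp
    refine ⟨fun i => ?_, ?_⟩
    · rw [bf_add_smul, hxv i, hxu i, mul_zero, add_zero]
    · rw [bf_add_smul, hBuu, mul_zero, add_zero]
      exact huv
  · intro w hw
    simp only [Finset.coe_product, Finset.coe_filter, Finset.mem_univ, true_and,
      Finset.coe_univ, Set.mem_prod, Set.mem_ofPred_eq, Set.mem_univ, and_true] at hw ⊢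
    obtain ⟨hxw, huw⟩ := hw
    have hsub : w - (Q w / bf Q u w) • u = w + (-(Q w / bf Q u w)) • u := by
      rw [neg_smul, sub_eq_add_neg]
    rw [hsub]
    refine ⟨⟨?_, fun i => ?_⟩, ?_⟩
    · rw [q_add_smul, hQu]
      field_simp
      ring
    · rw [bf_add_smul, hxw i, hxu i, mul_zero, add_zero]
    · rw [bf_add_smul, hBuu, mul_zero, add_zero]
      exact huw
  · rintro ⟨v, c⟩ hp
    simp only [Finset.coe_product, Finset.coe_filter, Finset.mem_univ, true_and,
      Finset.coe_univ, Set.mem_prod, Set.mem_ofPred_eq, Set.mem_univ, and_true] at hp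
    obtain ⟨⟨hQv, hxv⟩, huv⟩ := hp
    have h1 : Q (v + c • u) = c * bf Q u v := by
      rw [q_add_smul, hQv, hQu]
      ring
    have h2 : bf Q u (v + c • u) = bf Q u v := by
      rw [bf_add_smul, hBuu, mul_zero, add_zero]
    have h3 : Q (v + c • u) / bf Q u (v + c • u) = c := by
      rw [h1, h2]
      field_simp
    show (v + c • u - (Q (v + c • u) / bf Q u (v + c • u)) • u,
      Q (v + c • u) / bf Q u (v + c • u)) = (v, c)
    rw [h3, add_sub_cancel_right]
  · intro w _
    show w - (Q w / bf Q u w) • u + (Q w / bf Q u w) • u = w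
    rw [sub_add_cancel]

/-- the number of singular vectors orthogonal to a totally singular independent `k`-tuple. -/
theorem card_sing_perp (hnd : (bf Q).Nondegenerate) :
    ∀ (k : ℕ) (x : Fin k → ι → F), LinearIndependent F x → (∀ i, Q (x i) = 0) →
      (∀ i j, bf Q (x i) (x j) = 0) → k + 1 ≤ Fintype.card ι →
      (Finset.univ.filter (fun v : ι → F => Q v = 0 ∧ ∀ i, bf Q (x i) v = 0)).card +
          Fintype.card F ^ (Fintype.card ι - 1) =
        (Finset.univ.filter (fun v : ι → F => Q v = 0)).card +
          Fintype.card F ^ (Fintype.card ι - 1 - k) := by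
  intro k
  induction k with
  | zero =>
    intro x _ _ _ _
    have h : Finset.univ.filter (fun v : ι → F => Q v = 0 ∧ ∀ i, bf Q (x i) v = 0) =
        Finset.univ.filter (fun v : ι → F => Q v = 0) := by
      ext v
      simp only [Finset.mem_filter, Finset.mem_univ, true_and]
      exact ⟨fun h => h.1, fun h => ⟨h, fun i => i.elim0⟩⟩
    rw [h, Nat.sub_zero]
  | succ k ih =>
    intro x' hx' hQ hB hk
    have hx : LinearIndependent F (fun i : Fin k => x' i.castSucc) :=
      hx'.comp _ (Fin.castSucc_injective k)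
    have ih' := ih (fun i : Fin k => x' i.castSucc) hx (fun i => hQ _) (fun i j => hB _ _)
      (by omega)
    have hA0 := card_perp_tuple Q hnd (fun i : Fin k => x' i.castSucc) hx
    have hA1 := card_perp_tuple Q hnd x' hx'
    have hQu : Q (x' (Fin.last k)) = 0 := hQ _
    have hst := card_step Q (fun i : Fin k => x' i.castSucc) (x' (Fin.last k)) hQu
      (fun i => hB _ _)
    have hS1 : Finset.univ.filter (fun v : ι → F => Q v = 0 ∧ ∀ i, bf Q (x' i) v = 0) =
        Finset.univ.filter (fun v : ι → F =>
          (Q v = 0 ∧ ∀ i : Fin k, bf Q (x' i.castSucc) v = 0) ∧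
            bf Q (x' (Fin.last k)) v = 0) := by
      ext v
      simp only [Finset.mem_filter, Finset.mem_univ, true_and]
      rw [Fin.forall_fin_succ', and_assoc]
    have hP1 : Finset.univ.filter (fun v : ι → F => ∀ i, bf Q (x' i) v = 0) =
        Finset.univ.filter (fun v : ι → F =>
          (∀ i : Fin k, bf Q (x' i.castSucc) v = 0) ∧ bf Q (x' (Fin.last k)) v = 0) := by
      ext v
      simp only [Finset.mem_filter, Finset.mem_univ, true_and]
      rw [Fin.forall_fin_succ']
    have hsplitS := Finset.card_filter_add_card_filter_not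
      (s := Finset.univ.filter (fun v : ι → F =>
        Q v = 0 ∧ ∀ i : Fin k, bf Q (x' i.castSucc) v = 0))
      (fun v => bf Q (x' (Fin.last k)) v = 0)
    have hsplitP := Finset.card_filter_add_card_filter_not
      (s := Finset.univ.filter (fun v : ι → F => ∀ i : Fin k, bf Q (x' i.castSucc) v = 0))
      (fun v => bf Q (x' (Fin.last k)) v = 0)
    simp only [Finset.filter_filter] at hsplitS hsplitP
    rw [hS1]
    rw [hP1] at hA1
    rw [hA0] at hsplitP
    rw [← hst, hA1] at hsplitP
    have hq : 0 < Fintype.card F := Fintype.card_pos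
    obtain ⟨e, he⟩ : ∃ e, Fintype.card ι = k + 2 + e := ⟨Fintype.card ι - (k + 2), by omega⟩
    have e1 : Fintype.card ι - 1 - k = e + 1 := by omega
    have e2 : Fintype.card ι - k = e + 2 := by omega
    have e3 : Fintype.card ι - (k + 1) = e + 1 := by omega
    have e4 : Fintype.card ι - 1 - (k + 1) = e := by omega
    rw [e1] at ih'
    rw [e2, e3] at hsplitP
    rw [e4]
    have hpow1 : Fintype.card F ^ (e + 1) = Fintype.card F * Fintype.card F ^ e := pow_succ' _ _
    have hpow2 : Fintype.card F ^ (e + 2) =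
        Fintype.card F * (Fintype.card F * Fintype.card F ^ e) := by
      rw [pow_succ', pow_succ']
    rw [hpow1] at ih'
    rw [hpow1, hpow2] at hsplitP
    generalize Fintype.card F ^ e = X at ih' hsplitP ⊢
    generalize Fintype.card F ^ (Fintype.card ι - 1) = Y at ih' ⊢
    generalize (Finset.univ.filter (fun v : ι → F => Q v = 0)).card = Z0 at ih' ⊢
    generalize (Finset.univ.filter (fun v : ι → F =>
        Q v = 0 ∧ ∀ i : Fin k, bf Q (x' i.castSucc) v = 0)).card = Zk at ih' hsplitS
    generalize (Finset.univ.filter (fun v : ι → F =>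
          (Q v = 0 ∧ ∀ i : Fin k, bf Q (x' i.castSucc) v = 0) ∧
            bf Q (x' (Fin.last k)) v = 0)).card = a at hsplitS ⊢
    generalize (Finset.univ.filter (fun v : ι → F =>
          (Q v = 0 ∧ ∀ i : Fin k, bf Q (x' i.castSucc) v = 0) ∧
            ¬ bf Q (x' (Fin.last k)) v = 0)).card = t at hsplitS hsplitP
    have h5 : Fintype.card F * (X + t) = Fintype.card F * (Fintype.card F * X) := by
      rw [Nat.mul_add]
      linarith
    have h6 := Nat.eq_of_mul_eq_mul_left hq h5
    omega

/-- linearly independent totally singular `k`-tuples. -/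
def tsTuples (k : ℕ) : Set (Fin k → ι → F) :=
  {x | LinearIndependent F x ∧ (∀ i, Q (x i) = 0) ∧ ∀ i j, bf Q (x i) (x j) = 0}

/-- the number of admissible extensions of a totally singular tuple. -/
theorem card_tsTuples_fiber (hnd : (bf Q).Nondegenerate) {k : ℕ} (x : Fin k → ι → F)
    (hx : x ∈ tsTuples Q k) (hk : k + 1 ≤ Fintype.card ι) :
    Nat.card {v : ι → F // (Q v = 0 ∧ ∀ i, bf Q (x i) v = 0) ∧
        v ∉ Submodule.span F (Set.range x)} =
      Nat.card {v : ι → F // Q v = 0} + Fintype.card F ^ (Fintype.card ι - 1 - k) -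
        Fintype.card F ^ (Fintype.card ι - 1) - Fintype.card F ^ k := by
  set U := Submodule.span F (Set.range x) with hU
  have hfU : finrank F U = k := by rw [hU, finrank_span_eq_card hx.1, Fintype.card_fin]
  have hcU : Fintype.card U = Fintype.card F ^ k := by
    rw [Module.card_eq_pow_finrank (K := F), hfU]
  have hS := card_sing_perp Q hnd k x hx.1 hx.2.1 hx.2.2 hk
  have hZ0 : Nat.card {v : ι → F // Q v = 0} =
      (Finset.univ.filter (fun v : ι → F => Q v = 0)).card := by
    rw [Nat.card_eq_fintype_card]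
    exact Fintype.card_of_subtype _ (fun v => by
      simp only [Finset.mem_filter, Finset.mem_univ, true_and])
  have hUf : (Finset.univ.filter (fun v : ι → F => v ∈ U)).card = Fintype.card F ^ k := by
    rw [← hcU]
    exact (Fintype.card_of_subtype _ (fun v => by
      simp only [Finset.mem_filter, Finset.mem_univ, true_and])).symm
  have hsub : Finset.univ.filter (fun v : ι → F => v ∈ U) ⊆
      Finset.univ.filter (fun v : ι → F => Q v = 0 ∧ ∀ i, bf Q (x i) v = 0) := by
    intro v hv
    simp only [Finset.mem_filter, Finset.mem_univ, true_and] at hv ⊢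
    exact ⟨span_sing Q x hx.2.1 hx.2.2 v hv, fun i =>
      span_perp Q x hx.2.2 v hv (x i) (Submodule.subset_span ⟨i, rfl⟩)⟩
  rw [Nat.card_eq_fintype_card, Fintype.card_of_subtype
    ((Finset.univ.filter (fun v : ι → F => Q v = 0 ∧ ∀ i, bf Q (x i) v = 0)) \
      (Finset.univ.filter (fun v : ι → F => v ∈ U))) (fun v => by
        simp only [Finset.mem_sdiff, Finset.mem_filter, Finset.mem_univ, true_and]),
    Finset.card_sdiff_of_subset hsub, hUf, hZ0]
  omega

theorem sigma_ext_aux {α W : Type*} {P : α → Prop} {R : α → W → Prop} (a a' : α)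
    (ha : P a) (ha' : P a') (v v' : W) (hv : R a v) (hv' : R a' v') (h1 : a = a')
    (h2 : v = v') :
    (⟨⟨a, ha⟩, ⟨v, hv⟩⟩ : Σ x : {x // P x}, {v : W // R x.1 v}) = ⟨⟨a', ha'⟩, ⟨v', hv'⟩⟩ := by
  subst h1
  subst h2
  rfl

/-- totally singular `(k+1)`-tuples as extensions of totally singular `k`-tuples. -/
noncomputable def tsTuplesSuccEquiv (k : ℕ) :
    ↥(tsTuples Q (k + 1)) ≃ Σ x : ↥(tsTuples Q k),
      {v : ι → F // (Q v = 0 ∧ ∀ i, bf Q (x.1 i) v = 0) ∧
        v ∉ Submodule.span F (Set.range x.1)} where
  toFun z := ⟨⟨Fin.init z.1, by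
      have h := z.2.1
      rw [← Fin.snoc_init_self z.1, linearIndependent_finSnoc] at h
      exact ⟨h.1, fun i => z.2.2.1 _, fun i j => z.2.2.2 _ _⟩⟩, ⟨z.1 (Fin.last k), by
      have h := z.2.1
      rw [← Fin.snoc_init_self z.1, linearIndependent_finSnoc] at h
      exact ⟨⟨z.2.2.1 _, fun i => z.2.2.2 _ _⟩, h.2⟩⟩⟩
  invFun p := ⟨Fin.snoc p.1.1 p.2.1, by
      refine ⟨linearIndependent_finSnoc.mpr ⟨p.1.2.1, p.2.2.2⟩, ?_, ?_⟩
      · intro i
        induction i using Fin.lastCases with
        | last => rw [Fin.snoc_last]; exact p.2.2.1.1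
        | cast i => rw [Fin.snoc_castSucc]; exact p.1.2.2.1 i
      · intro i j
        induction i using Fin.lastCases with
        | last =>
          induction j using Fin.lastCases with
          | last => rw [Fin.snoc_last, bf_self, p.2.2.1.1, mul_zero]
          | cast j =>
            rw [Fin.snoc_last, Fin.snoc_castSucc, bf_comm, p.2.2.1.2 j]
        | cast i =>
          induction j using Fin.lastCases with
          | last => rw [Fin.snoc_last, Fin.snoc_castSucc, p.2.2.1.2 i]
          | cast j => rw [Fin.snoc_castSucc, Fin.snoc_castSucc, p.1.2.2.2 i j]⟩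
  left_inv z := by
    apply Subtype.ext
    exact Fin.snoc_init_self z.1
  right_inv p := by
    obtain ⟨⟨x, hx⟩, ⟨v, hv⟩⟩ := p
    have h1 : Fin.init (Fin.snoc x v : Fin (k + 1) → ι → F) = x := Fin.init_snoc _ _
    have h2' : (Fin.snoc x v : Fin (k + 1) → ι → F) (Fin.last k) = v := Fin.snoc_last _ _
    exact sigma_ext_aux (P := fun x => x ∈ tsTuples Q k)
      (R := fun x v => (Q v = 0 ∧ ∀ i, bf Q (x i) v = 0) ∧
        v ∉ Submodule.span F (Set.range x)) _ _ _ _ _ _ _ _ h1 h2'

/-- the number of linearly independent totally singular `k`-tuples. -/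
theorem card_tsTuples (hnd : (bf Q).Nondegenerate) (k : ℕ) (hk : k ≤ Fintype.card ι) :
    Nat.card ↥(tsTuples Q k) =
      ∏ j ∈ Finset.range k, (Nat.card {v : ι → F // Q v = 0} +
        Fintype.card F ^ (Fintype.card ι - 1 - j) - Fintype.card F ^ (Fintype.card ι - 1) -
          Fintype.card F ^ j) := by
  induction k with
  | zero =>
    rw [Finset.prod_range_zero]
    have : Unique ↥(tsTuples Q 0) :=
      { default := ⟨fun i => i.elim0, linearIndependent_empty_type, fun i => i.elim0,
          fun i => i.elim0⟩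
        uniq := fun z => Subtype.ext (funext fun i => i.elim0) }
    exact Nat.card_unique
  | succ k ih =>
    have := Fintype.ofFinite ↥(tsTuples Q k)
    rw [Nat.card_congr (tsTuplesSuccEquiv Q k), Nat.card_sigma, Finset.prod_range_succ,
      ← ih (by omega)]
    rw [Finset.sum_congr rfl (fun x _ => card_tsTuples_fiber Q hnd x.1 x.2 (by omega)),
      Finset.sum_const, Finset.card_univ, smul_eq_mul,
      Nat.card_eq_fintype_card (α := ↥(tsTuples Q k))]

/-- Counting totally singular subspaces through their ordered bases. -/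
theorem card_ts_mul (hnd : (bf Q).Nondegenerate) (m : ℕ) (hm : m ≤ Fintype.card ι) :
    Nat.card {W : Submodule F (ι → F) // finrank F W = m ∧ ∀ w ∈ W, Q w = 0} *
      ∏ j : Fin m, (Fintype.card F ^ m - Fintype.card F ^ j.val) =
    ∏ j ∈ Finset.range m, (Nat.card {v : ι → F // Q v = 0} +
        Fintype.card F ^ (Fintype.card ι - 1 - j) - Fintype.card F ^ (Fintype.card ι - 1) -
          Fintype.card F ^ j) := by
  rw [← card_tsTuples Q hnd m hm]
  let φ : ↥(tsTuples Q m) → {W : Submodule F (ι → F) // finrank F W = m ∧ ∀ w ∈ W, Q w = 0} :=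
    fun s => ⟨Submodule.span F (Set.range s.1), by
      rw [finrank_span_eq_card s.2.1, Fintype.card_fin],
      fun w hw => span_sing Q s.1 s.2.2.1 s.2.2.2 w hw⟩
  rw [← Nat.card_congr (Equiv.sigmaFiberEquiv φ), Nat.card_sigma]
  have h3 : ∀ W : {W : Submodule F (ι → F) // finrank F W = m ∧ ∀ w ∈ W, Q w = 0},
      Nat.card {s : ↥(tsTuples Q m) // φ s = W} =
        ∏ j : Fin m, (Fintype.card F ^ m - Fintype.card F ^ j.val) := by
    intro W
    rw [← Cfsg.Agent.Lib.Helper40.Elusive.card_fib m W.1 W.2.1]
    apply Nat.card_congr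
    exact
      { toFun := fun s => ⟨⟨s.1.1, s.1.2.1⟩, congrArg Subtype.val s.2⟩
        invFun := fun s => ⟨⟨s.1.1, s.1.2,
            fun i => W.2.2 _ (s.2.le (Submodule.subset_span ⟨i, rfl⟩)),
            fun i j => bf_zero_of_q Q _ _
              (W.2.2 _ (s.2.le (Submodule.subset_span ⟨i, rfl⟩)))
              (W.2.2 _ (s.2.le (Submodule.subset_span ⟨j, rfl⟩)))
              (W.2.2 _ (W.1.add_mem (s.2.le (Submodule.subset_span ⟨i, rfl⟩))
                (s.2.le (Submodule.subset_span ⟨j, rfl⟩))))⟩,
          Subtype.ext s.2⟩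
        left_inv := fun s => rfl
        right_inv := fun s => rfl }
  rw [Finset.sum_congr rfl (fun W _ => h3 W), Finset.sum_const, Finset.card_univ,
    smul_eq_mul, Nat.card_eq_fintype_card
      (α := {W : Submodule F (ι → F) // finrank F W = m ∧ ∀ w ∈ W, Q w = 0})]

end count

end Cfsg.Agent.Lib.Helper53.OTS.Gen
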