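-- The number of totally singular m-spaces of the plus-type and minus-type orthogonal spaces
-- over a finite field (all characteristics), from the generic count (helper53).
import Mathlib
import Cfsg.Prelude.Def_GeometricClasses
import Cfsg.Agent.Lib.Helper53.OTS.CountGen
import Cfsg.Agent.Lib.Helper14.Forms
import Cfsg.Agent.Lib.Helper44.Char2Forms
import Cfsg.Agent.Lib.Helper45.OrthZeros

set_option autoImplicit false
set_option linter.unusedSectionVars false

namespace Cfsg.Agent.Lib.Helper53.OTS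

open Module

universe u

section arith

theorem arith_plus (q A C Z0 : ℕ) (hq : 1 ≤ q) (hA : 1 ≤ A)
    (hZ : Z0 = q * (A * A * C * C) + q * (A * C) - A * C) :
    Z0 + q * (A * A * C) - q * (A * A * C * C) - C = C * ((q * A - 1) * (A + 1)) := by
  have k1 : A * C ≤ q * (A * C) := Nat.le_mul_of_pos_left _ hq
  have k2 : C * ((q * A - 1) * (A + 1)) + C + A * C = q * (A * A * C) + q * (A * C) := by
    obtain ⟨B, hB⟩ : ∃ B, q * A = B + 1 := ⟨q * A - 1, by
      have := Nat.mul_le_mul hq hA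
      omega⟩
    have h : q * (A * A * C) + q * (A * C) = (q * A) * (A * C) + (q * A) * C := by ring
    rw [h, hB, Nat.add_sub_cancel]
    ring
  omega

theorem arith_minus (q A C Z0 : ℕ) (hq : 1 ≤ q) (hA : 1 ≤ A) (hC : 1 ≤ C)
    (hZ : Z0 = q * (A * A * C * C) + A * C - q * (A * C)) :
    Z0 + q * (A * A * C) - q * (A * A * C * C) - C = C * ((q * A + 1) * (A - 1)) := by
  have k0 : A * C ≤ A * A * C * C := by
    have h1 : 1 ≤ A * C := Nat.mul_le_mul hA hC
    have h2 : A * A * C * C = (A * C) * (A * C) := by ring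
    rw [h2]
    exact Nat.le_mul_of_pos_left _ h1
  have k1 : q * (A * C) ≤ q * (A * A * C * C) := Nat.mul_le_mul_left q k0
  have k2 : C * ((q * A + 1) * (A - 1)) + C + q * (A * C) = q * (A * A * C) + A * C := by
    obtain ⟨B, rfl⟩ : ∃ B, A = B + 1 := ⟨A - 1, by omega⟩
    rw [Nat.add_sub_cancel]
    ring
  omega

theorem term_plus (q d j Z0 : ℕ) (hq : 1 ≤ q) (hj : j + 1 ≤ d)
    (hZ : Z0 = q ^ (2 * d - 1) + q ^ d - q ^ (d - 1)) :
    Z0 + q ^ (2 * d - 1 - j) - q ^ (2 * d - 1) - q ^ j =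
      q ^ j * ((q ^ (d - j) - 1) * (q ^ (d - j - 1) + 1)) := by
  obtain ⟨e, he⟩ : ∃ e, d = j + 1 + e := ⟨d - (j + 1), by omega⟩
  have h1 : q ^ (d - 1) = q ^ e * q ^ j := by
    rw [← pow_add]; congr 1; omega
  have h2 : q ^ d = q * (q ^ e * q ^ j) := by
    rw [← pow_add, ← pow_succ']; congr 1; omega
  have h3 : q ^ (2 * d - 1 - j) = q * (q ^ e * q ^ e * q ^ j) := by
    rw [← pow_add, ← pow_add, ← pow_succ']; congr 1; omega
  have h4 : q ^ (2 * d - 1) = q * (q ^ e * q ^ e * q ^ j * q ^ j) := by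
    rw [← pow_add, ← pow_add, ← pow_add, ← pow_succ']; congr 1; omega
  have h5 : q ^ (d - j) = q * q ^ e := by
    rw [← pow_succ']; congr 1; omega
  have h6 : q ^ (d - j - 1) = q ^ e := by
    congr 1; omega
  rw [h4, h2, h1] at hZ
  rw [h3, h4, h5, h6]
  exact arith_plus q (q ^ e) (q ^ j) Z0 hq (Nat.one_le_pow _ _ hq) hZ

theorem term_minus (q d j Z0 : ℕ) (hq : 1 ≤ q) (hj : j + 1 ≤ d)
    (hZ : Z0 = q ^ (2 * d - 1) + q ^ (d - 1) - q ^ d) :
    Z0 + q ^ (2 * d - 1 - j) - q ^ (2 * d - 1) - q ^ j =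
      q ^ j * ((q ^ (d - j) + 1) * (q ^ (d - j - 1) - 1)) := by
  obtain ⟨e, he⟩ : ∃ e, d = j + 1 + e := ⟨d - (j + 1), by omega⟩
  have h1 : q ^ (d - 1) = q ^ e * q ^ j := by
    rw [← pow_add]; congr 1; omega
  have h2 : q ^ d = q * (q ^ e * q ^ j) := by
    rw [← pow_add, ← pow_succ']; congr 1; omega
  have h3 : q ^ (2 * d - 1 - j) = q * (q ^ e * q ^ e * q ^ j) := by
    rw [← pow_add, ← pow_add, ← pow_succ']; congr 1; omega
  have h4 : q ^ (2 * d - 1) = q * (q ^ e * q ^ e * q ^ j * q ^ j) := by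
    rw [← pow_add, ← pow_add, ← pow_add, ← pow_succ']; congr 1; omega
  have h5 : q ^ (d - j) = q * q ^ e := by
    rw [← pow_succ']; congr 1; omega
  have h6 : q ^ (d - j - 1) = q ^ e := by
    congr 1; omega
  rw [h4, h2, h1] at hZ
  rw [h3, h4, h5, h6]
  exact arith_minus q (q ^ e) (q ^ j) Z0 hq (Nat.one_le_pow _ _ hq) (Nat.one_le_pow _ _ hq) hZ

end arith

section forms

variable {F : Type u} [Field F] [Fintype F]

/-- **Plus type**: `N_m * ∏_{j<m} (q^(m-j) - 1) = ∏_{j<m} (q^(d-j) - 1) (q^(d-j-1) + 1)`. -/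
theorem card_ts_plus (d m : ℕ) (hm : m ≤ d) :
    Nat.card {W : Submodule F (Fin d ⊕ Fin d → F) //
        finrank F W = m ∧ ∀ w ∈ W, Cfsg.quadFormPlus d F w = 0} *
      Cfsg.Agent.Lib.Helper40.Elusive.Q (Fintype.card F) m m =
    ∏ j ∈ Finset.range m,
      ((Fintype.card F ^ (d - j) - 1) * (Fintype.card F ^ (d - j - 1) + 1)) := by
  have hq : 2 ≤ Fintype.card F := Fintype.one_lt_card
  have hcard : Fintype.card (Fin d ⊕ Fin d) = 2 * d := by
    simp [two_mul]
  have h1 := Gen.card_ts_mul (Cfsg.Agent.Lib.Helper14.plusQF d F)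
    (Cfsg.Agent.Lib.Helper14.plusQF_nondegenerate d F) m (by rw [hcard]; omega)
  have hcoe : ∀ w, Cfsg.Agent.Lib.Helper14.plusQF d F w = Cfsg.quadFormPlus d F w :=
    fun w => congrFun (Cfsg.Agent.Lib.Helper14.plusQF_coe d F) w
  simp only [hcoe] at h1
  rw [hcard, Cfsg.Agent.Lib.Helper40.Elusive.prod_li _ _ _ le_rfl] at h1
  have h2 : ∏ j ∈ Finset.range m,
      (Nat.card {v : Fin d ⊕ Fin d → F // Cfsg.quadFormPlus d F v = 0} +
        Fintype.card F ^ (2 * d - 1 - j) - Fintype.card F ^ (2 * d - 1) - Fintype.card F ^ j) =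
      (∏ j ∈ Finset.range m, Fintype.card F ^ j) * ∏ j ∈ Finset.range m,
        ((Fintype.card F ^ (d - j) - 1) * (Fintype.card F ^ (d - j - 1) + 1)) := by
    rw [← Finset.prod_mul_distrib]
    apply Finset.prod_congr rfl
    intro j hj
    have hj' := Finset.mem_range.1 hj
    exact term_plus _ d j _ (by omega) (by omega)
      (Cfsg.Agent.Lib.Helper45.card_zeros_plus rfl d (by omega))
  rw [h2, ← mul_assoc, mul_comm (Nat.card _), mul_assoc] at h1
  have h4 : 0 < ∏ j ∈ Finset.range m, Fintype.card F ^ j :=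
    Finset.prod_pos (fun j _ => Nat.pow_pos (by omega))
  exact Nat.eq_of_mul_eq_mul_left h4 h1

/-- **Minus type**: `N_m * ∏_{j<m} (q^(m-j) - 1) = ∏_{j<m} (q^(d-j) + 1) (q^(d-j-1) - 1)`. -/
theorem card_ts_minus (d m : ℕ) (hd : 1 ≤ d) (hm : m ≤ d) (a b : F)
    (hab : ∀ z₁ z₂ : F, z₁ ^ 2 + a * z₁ * z₂ + b * z₂ ^ 2 = 0 → z₁ = 0 ∧ z₂ = 0) :
    Nat.card {W : Submodule F ((Fin (d - 1) ⊕ Fin (d - 1)) ⊕ Fin 2 → F) //
        finrank F W = m ∧ ∀ w ∈ W, Cfsg.quadFormMinus (d - 1) F a b w = 0} *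
      Cfsg.Agent.Lib.Helper40.Elusive.Q (Fintype.card F) m m =
    ∏ j ∈ Finset.range m,
      ((Fintype.card F ^ (d - j) + 1) * (Fintype.card F ^ (d - j - 1) - 1)) := by
  have hq : 2 ≤ Fintype.card F := Fintype.one_lt_card
  have hcard : Fintype.card ((Fin (d - 1) ⊕ Fin (d - 1)) ⊕ Fin 2) = 2 * d := by
    simp only [Fintype.card_sum, Fintype.card_fin]
    omega
  have h1 := Gen.card_ts_mul (Cfsg.Agent.Lib.Helper14.minusQF (d - 1) F a b)
    (Cfsg.Agent.Lib.Helper44.minusQF_nondegenerate_all (d - 1) F a b hab) m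
    (by rw [hcard]; omega)
  have hcoe : ∀ w, Cfsg.Agent.Lib.Helper14.minusQF (d - 1) F a b w =
      Cfsg.quadFormMinus (d - 1) F a b w :=
    fun w => congrFun (Cfsg.Agent.Lib.Helper14.minusQF_coe (d - 1) F a b) w
  simp only [hcoe] at h1
  rw [hcard, Cfsg.Agent.Lib.Helper40.Elusive.prod_li _ _ _ le_rfl] at h1
  have h2 : ∏ j ∈ Finset.range m,
      (Nat.card {v : (Fin (d - 1) ⊕ Fin (d - 1)) ⊕ Fin 2 → F //
          Cfsg.quadFormMinus (d - 1) F a b v = 0} +
        Fintype.card F ^ (2 * d - 1 - j) - Fintype.card F ^ (2 * d - 1) - Fintype.card F ^ j) =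
      (∏ j ∈ Finset.range m, Fintype.card F ^ j) * ∏ j ∈ Finset.range m,
        ((Fintype.card F ^ (d - j) + 1) * (Fintype.card F ^ (d - j - 1) - 1)) := by
    rw [← Finset.prod_mul_distrib]
    apply Finset.prod_congr rfl
    intro j hj
    have hj' := Finset.mem_range.1 hj
    exact term_minus _ d j _ (by omega) (by omega)
      (Cfsg.Agent.Lib.Helper45.card_zeros_minus rfl d hd a b hab)
  rw [h2, ← mul_assoc, mul_comm (Nat.card _), mul_assoc] at h1
  have h4 : 0 < ∏ j ∈ Finset.range m, Fintype.card F ^ j :=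
    Finset.prod_pos (fun j _ => Nat.pow_pos (by omega))
  exact Nat.eq_of_mul_eq_mul_left h4 h1

/-- The minus-type count in the `IsTotallySingularQuad` form of S5987. -/
theorem card_ts_minus' (d m : ℕ) (hd : 1 ≤ d) (hm : m ≤ d) (a b : F)
    (hab : ∀ z₁ z₂ : F, z₁ ^ 2 + a * z₁ * z₂ + b * z₂ ^ 2 = 0 → z₁ = 0 ∧ z₂ = 0) :
    Nat.card {W : Submodule F ((Fin (d - 1) ⊕ Fin (d - 1)) ⊕ Fin 2 → F) //
        finrank F W = m ∧ Cfsg.Geo.IsTotallySingularQuad (Cfsg.quadFormMinus (d - 1) F a b) W} *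
      Cfsg.Agent.Lib.Helper40.Elusive.Q (Fintype.card F) m m =
    ∏ j ∈ Finset.range m,
      ((Fintype.card F ^ (d - j) + 1) * (Fintype.card F ^ (d - j - 1) - 1)) :=
  card_ts_minus d m hd hm a b hab

end forms

end Cfsg.Agent.Lib.Helper53.OTS
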